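import Mathlib
import Cfsg.Agent.Lib.Helper16.SS4
import Cfsg.Agent.Lib.Helper16.SCNil
import Cfsg.Agent.H4.PrimeIndex
import Cfsg.Agent.H4.Frattini
import Cfsg.Agent.H4.Clt
import Cfsg.Agent.H1.Gaschutz

set_option autoImplicit false

universe u

namespace Cfsg.Agent.Lib.Helper16

open Subgroup
open scoped commutatorElement

section
variable {G : Type*} [Group G]

/-- **Lemma A′** -/
theorem comm_mem_of_mem_LL' [Finite G] {q : ℕ} [hq : Fact q.Prime] {X Y : Subgroup G} [hXn : X.Normal]
    [Y.Normal] (hX : IsPGroup q X) (hcyc : IsCyclic (X.map (QuotientGroup.mk' Y))) {l : G}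
    (hl : l ∈ LL q G) (hlo : (orderOf l).Coprime q) : ∀ x ∈ X, l * x * l⁻¹ * x⁻¹ ∈ Y := by
  intro x hx
  have hsurj := QuotientGroup.mk'_surjective Y
  have hn : (X.map (QuotientGroup.mk' Y)).Normal := hXn.map _ hsurj
  have h2 := mem_centralizer_of_mem_LL_cyclic (hX.map (QuotientGroup.mk' Y)) hcyc
    (map_mem_LL (QuotientGroup.mk' Y) hl)
    (Nat.Coprime.coprime_dvd_left (orderOf_map_dvd _ l) hlo)
  have h3 := (mem_centralizer_iff.1 h2) _ (mem_map_of_mem _ hx)
  rw [← QuotientGroup.eq_one_iff]
  show QuotientGroup.mk' Y (l * x * l⁻¹ * x⁻¹) = 1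
  rw [map_mul, map_mul, map_mul, map_inv, map_inv, ← h3]
  group

/-- **Lemma C**: in a supersolvable group the `q'`-elements of `LL q G` centralize the normal
`q`-subgroups. -/
theorem mem_centralizer_of_isSupersolvable [Finite G] {q : ℕ} [Fact q.Prime]
    (hss : Cfsg.IsSupersolvable G) {Q : Subgroup G} [hQn : Q.Normal] (hQ : IsPGroup q Q) {l : G}
    (hl : l ∈ LL q G) (hlo : (orderOf l).Coprime q) : l ∈ centralizer (Q : Set G) := by
  rw [Cfsg.Agent.H4.isSupersolvable_iff_chain] at hss
  have key : ∀ A : Subgroup G, Relation.ReflTransGen Cfsg.Agent.H4.SsStep ⊥ A →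
      l ∈ centralizer ((A ⊓ Q : Subgroup G) : Set G) := by
    intro A hA
    induction hA with
    | refl =>
      rw [bot_inf_eq, mem_centralizer_iff]
      intro x hx
      have : x = 1 := hx
      rw [this]; simp
    | @tail B C _ hs ih =>
      obtain ⟨-, -, k, hk⟩ := Cfsg.Agent.H4.SsStep.comap Q.subtype hs
      obtain ⟨hB, hC, -⟩ := hs
      have hk2 : C ⊓ Q = (B ⊓ Q) ⊔ zpowers (k : G) := by
        have := congrArg (Subgroup.map Q.subtype) hk
        rw [Subgroup.map_sup, MonoidHom.map_zpowers] at this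
        have e1 : ∀ D : Subgroup G, (D.comap Q.subtype).map Q.subtype = D ⊓ Q := fun D =>
          Subgroup.subgroupOf_map_subtype D Q
        rw [e1, e1] at this
        exact this
      have hBQ : (B ⊓ Q).Normal := inferInstance
      have hCQ : (C ⊓ Q).Normal := inferInstance
      apply mem_centralizer_of_stable (hQ.to_le inf_le_right) hlo ih
      apply comm_mem_of_mem_LL' (hQ.to_le inf_le_right) ?_ hl hlo
      rw [hk2, Subgroup.map_sup, MonoidHom.map_zpowers, QuotientGroup.map_mk'_self, bot_sup_eq]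
      infer_instance
  have := key ⊤ hss
  rwa [top_inf_eq] at this

theorem normal_inf_of_sup_eq_top {A H : Subgroup G} [hA : A.Normal] [IsMulCommutative A]
    (hH' : A ⊔ H = ⊤) : (A ⊓ H).Normal := by
  constructor
  intro d hd g
  have hg : g ∈ A ⊔ H := by rw [hH']; exact mem_top g
  rw [Subgroup.mem_sup_of_normal_left] at hg
  obtain ⟨a, ha, h, hh, rfl⟩ := hg
  have h1 : h * d * h⁻¹ ∈ A ⊓ H :=
    ⟨hA.conj_mem d hd.1 h, H.mul_mem (H.mul_mem hh hd.2) (H.inv_mem hh)⟩
  have h2 : a * h * d * (a * h)⁻¹ = h * d * h⁻¹ := by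
    have h3 := Cfsg.Agent.H4.comm_of_mem ha h1.1
    calc a * h * d * (a * h)⁻¹ = (a * (h * d * h⁻¹)) * a⁻¹ := by group
      _ = h * d * h⁻¹ := by rw [h3]; group
  rw [h2]; exact h1

end

theorem huppert_aux : ∀ (n : ℕ) (G : Type u) [Group G] [Finite G], Nat.card G = n →
    (∀ M : Subgroup G, IsCoatom M → M.index.Prime) → Cfsg.IsSupersolvable G := by
  intro n
  induction n using Nat.strong_induction_on with
  | _ n ih =>
    intro G _ _ hn h
    rcases subsingleton_or_nontrivial G with hs | hnt
    · exact Cfsg.Agent.H4.isSupersolvable_of_subsingleton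
    have hc1 : Nat.card G ≠ 1 := (Finite.one_lt_card).ne'
    obtain ⟨p, hp, hpd, hmax⟩ := Cfsg.Agent.H4.exists_largest_prime Nat.card_pos.ne' hc1
    have : Fact p.Prime := ⟨hp⟩
    obtain ⟨P'⟩ : Nonempty (Sylow p G) := inferInstance
    have hPn : (P' : Subgroup G).Normal := Cfsg.Agent.H4.sylow_normal_of_prime_index h hmax P'
    have hPbot : (P' : Subgroup G) ≠ ⊥ := P'.ne_bot_of_dvd_card hpd
    have hquot : ∀ (N : Subgroup G) [N.Normal], N ≠ ⊥ → Cfsg.IsSupersolvable (G ⧸ N) := by
      intro N _ hN
      apply ih _ (hn ▸ Cfsg.Agent.H4.card_quotient_lt _ hN) _ rfl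
      intro M' hM'
      have := h _ (Cfsg.Agent.H4.isCoatom_comap_mk' _ hM')
      rwa [index_comap_of_surjective _ (QuotientGroup.mk'_surjective _)] at this
    set P : Subgroup G := (P' : Subgroup G) with hPdef
    have hP : IsPGroup p P := P'.2
    by_cases hΦ : frattini P = ⊥
    · have hcomm : ∀ a b : P, a * b = b * a := by
        intro a b
        have h1 := (Cfsg.H1.frattini_pgroup_ge p hP).1
        rw [hΦ, le_bot_iff] at h1
        have h2 : ⁅a, b⁆ ∈ commutator P := Subgroup.commutator_mem_commutator (mem_top a) (mem_top b)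
        rw [h1, mem_bot, commutatorElement_eq_one_iff_mul_comm] at h2
        exact h2
      obtain ⟨N, ⟨hNn, hNbot, hNP⟩, hNmin⟩ := Set.Finite.exists_minimal
        (s := {N : Subgroup G | N.Normal ∧ N ≠ ⊥ ∧ N ≤ P}) (Set.toFinite _) ⟨P, hPn, hPbot, le_rfl⟩
      have hNcomm : IsMulCommutative N := ⟨⟨fun a b => by
        have := hcomm ⟨a, hNP a.2⟩ ⟨b, hNP b.2⟩
        have h2 : (a : G) * (b : G) = (b : G) * (a : G) := congrArg Subtype.val this
        exact Subtype.ext h2⟩⟩
      have hN'comm : IsMulCommutative (N.subgroupOf P) := ⟨⟨fun a b => Subtype.ext (hcomm a b)⟩⟩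
      obtain ⟨A', hA'⟩ := Cfsg.Agent.H4.exists_complement_of_frattini_eq_bot hΦ (N.subgroupOf P)
      have hcop : (Nat.card N).Coprime P.index := by
        obtain ⟨j, hj⟩ := IsPGroup.iff_card.1 (hP.to_le hNP)
        rw [hj]
        exact Nat.Coprime.pow_left j ((Nat.Prime.coprime_iff_not_dvd hp).2 P'.not_dvd_index)
      have hAK : A'.map P.subtype ⊓ N = ⊥ := by
        rw [eq_bot_iff]
        rintro x ⟨⟨a, ha, rfl⟩, hx⟩
        have h1 : a ∈ N.subgroupOf P ⊓ A' := ⟨hx, ha⟩
        rw [hA'.disjoint.eq_bot, mem_bot] at h1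
        rw [h1]; exact one_mem _
      have hKA : N ⊔ A'.map P.subtype = P := by
        have h1 := congrArg (Subgroup.map P.subtype) hA'.sup_eq_top
        rw [Subgroup.map_sup, Subgroup.subgroupOf_map_subtype, inf_eq_left.2 hNP,
          ← MonoidHom.range_eq_map, Subgroup.range_subtype] at h1
        exact h1
      obtain ⟨H, hH⟩ := Cfsg.H1.gaschutz_exists (K := N) P hNP hcop (A'.map P.subtype) hAK hKA
      have hHtop : H ≠ ⊤ := by
        rintro rfl
        exact hNbot (Subgroup.isComplement'_top_right.1 hH)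
      obtain ⟨M, hM, hHM⟩ := (eq_top_or_exists_le_coatom H).resolve_left hHtop
      have hNM : N ⊔ M = ⊤ := by
        rw [eq_top_iff, ← hH.sup_eq_top]
        exact sup_le_sup_left hHM N
      have hinfn : (N ⊓ M).Normal := normal_inf_of_sup_eq_top hNM
      have hinf : N ⊓ M = ⊥ := by
        by_contra hne
        have h1 := hNmin ⟨hinfn, hne, inf_le_left.trans hNP⟩ inf_le_left
        apply hM.1
        rw [← hNM]
        exact (sup_eq_right.2 (h1.trans inf_le_right)).symm
      have hc := Cfsg.Agent.H4.isComplement'_of_normal_of_inf_of_sup hinf hNM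
      have hcard : Nat.card N = M.index := hc.index_eq_card.symm
      have : Fact M.index.Prime := ⟨h M hM⟩
      have hcyc : IsCyclic N := isCyclic_of_prime_card hcard
      exact Cfsg.Agent.H4.isSupersolvable_of_cyclic_normal N (hquot N hNbot)
    · set F : Subgroup G := (frattini P).map P.subtype with hF
      have hFn : F.Normal := ConjAct.normal_of_characteristic_of_normal
      have hFbot : F ≠ ⊥ := by
        rw [Ne, Subgroup.map_eq_bot_iff_of_injective _ P.subtype_injective]; exact hΦ
      have hssF := hquot F hFbot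
      apply isSupersolvable_of_LL p P (LL p G) hP (hquot P hPbot) (commutator_mem_LL p) (pow_mem_LL p)
      intro l hl hlo
      have key := Cfsg.H1.coprime_trivial_on_frattini_quotient (zpowers l) P
        (zpowers_le.2 (mem_normalizer_of_normal' hPn l))
        (by
          obtain ⟨k, hk⟩ := IsPGroup.iff_card.1 (hP.to_subgroup (frattini P))
          rw [hk, Nat.card_zpowers]
          exact Nat.Coprime.pow_right k hlo)
        (by
          intro a ha k hk
          have haL : a ∈ LL p G := zpowers_le.2 hl ha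
          have hao : (orderOf a).Coprime p :=
            Nat.Coprime.coprime_dvd_left (orderOf_dvd_of_mem_zpowers ha) hlo
          have hPmapn : (P.map (QuotientGroup.mk' F)).Normal :=
            hPn.map _ (QuotientGroup.mk'_surjective F)
          have h2 := mem_centralizer_of_isSupersolvable hssF (hP.map (QuotientGroup.mk' F))
            (map_mem_LL (QuotientGroup.mk' F) haL)
            (Nat.Coprime.coprime_dvd_left (orderOf_map_dvd _ a) hao)
          have h3 := (mem_centralizer_iff.1 h2) _ (mem_map_of_mem _ hk)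
          rw [← hF, ← QuotientGroup.eq_one_iff]
          show QuotientGroup.mk' F (a * k * a⁻¹ * k⁻¹) = 1
          rw [map_mul, map_mul, map_mul, map_inv, map_inv, ← h3]
          group)
      exact key (mem_zpowers l)

end Cfsg.Agent.Lib.Helper16
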