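import Mathlib
import Cfsg.Agent.Lib.Helper16.SS6

set_option autoImplicit false

universe u

namespace Cfsg.Agent.Lib.Helper16

open Subgroup
open scoped commutatorElement

theorem hereditary_clt_aux : ∀ (n : ℕ) (G : Type u) [Group G] [Finite G], Nat.card G = n →
    (∀ H : Subgroup G, Cfsg.HasSubgroupOfEveryOrder H) → Cfsg.IsSupersolvable G := by
  intro n
  induction n using Nat.strong_induction_on with
  | _ n ih =>
    intro G _ _ hn h
    rcases subsingleton_or_nontrivial G with hs | hnt
    · exact Cfsg.Agent.H4.isSupersolvable_of_subsingleton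
    have hc1 : Nat.card G ≠ 1 := (Finite.one_lt_card).ne'
    obtain ⟨q, hq, hqd, hmax⟩ := Cfsg.Agent.H4.exists_largest_prime Nat.card_pos.ne' hc1
    have : Fact q.Prime := ⟨hq⟩
    obtain ⟨Q'⟩ : Nonempty (Sylow q G) := inferInstance
    have hQn : (Q' : Subgroup G).Normal := Cfsg.Agent.H4.sylow_normal_of_clt_aux _ G rfl h q hmax Q'
    have hQbot : (Q' : Subgroup G) ≠ ⊥ := Q'.ne_bot_of_dvd_card hqd
    set Q : Subgroup G := (Q' : Subgroup G) with hQdef
    have hQ : IsPGroup q Q := Q'.2
    have hQidx : Q.index.Coprime q := ((Nat.Prime.coprime_iff_not_dvd hq).2 Q'.not_dvd_index).symm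
    have hG : Cfsg.HasSubgroupOfEveryOrder G := Cfsg.Agent.H4.clt_of_mulEquiv Subgroup.topEquiv (h ⊤)
    obtain ⟨H, hH⟩ := hG (Nat.card G / q) (Nat.div_dvd_of_dvd hqd)
    have hidx : H.index = q := by
      have h1 := H.card_mul_index
      rw [hH] at h1
      have h2 : Nat.card G / q * q = Nat.card G := Nat.div_mul_cancel hqd
      have h3 : 0 < Nat.card G / q := Nat.div_pos (Nat.le_of_dvd Nat.card_pos hqd) hq.pos
      exact Nat.eq_of_mul_eq_mul_left h3 (h1.trans h2.symm)
    have hlt : Nat.card H < Nat.card G := by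
      rw [hH]; exact Nat.div_lt_self Nat.card_pos hq.one_lt
    have hHss : Cfsg.IsSupersolvable H := ih (Nat.card H) (hn ▸ hlt) H rfl
      (fun K => Cfsg.Agent.H4.clt_of_mulEquiv
        (K.equivMapOfInjective H.subtype H.subtype_injective).symm (h (K.map H.subtype)))
    have hsup : H ⊔ Q = ⊤ := by
      rw [← Subgroup.index_eq_one]
      apply Nat.eq_one_of_dvd_coprimes hQidx (Subgroup.index_dvd_of_le le_sup_right)
      rw [← hidx]; exact Subgroup.index_dvd_of_le le_sup_left
    have hdec : ∀ g : G, ∃ a ∈ H, ∃ u ∈ Q, g = a * u := by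
      intro g
      have hg : g ∈ H ⊔ Q := by rw [hsup]; exact mem_top g
      rw [Subgroup.mem_sup_of_normal_right] at hg
      obtain ⟨a, ha, u, hu, rfl⟩ := hg
      exact ⟨a, ha, u, hu, rfl⟩
    have hssQ : Cfsg.IsSupersolvable (G ⧸ Q) := by
      apply Cfsg.Agent.H4.isSupersolvable_of_surjective ((QuotientGroup.mk' Q).comp H.subtype) ?_ hHss
      intro y
      obtain ⟨g, rfl⟩ := QuotientGroup.mk'_surjective Q y
      obtain ⟨a, ha, u, hu, rfl⟩ := hdec g
      refine ⟨⟨a, ha⟩, ?_⟩
      have hu1 : QuotientGroup.mk' Q u = 1 := (QuotientGroup.eq_one_iff u).2 hu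
      rw [MonoidHom.comp_apply, map_mul, hu1, mul_one]
      rfl
    set Q₁ : Subgroup G := H ⊓ Q with hQ₁
    have hrel : Q₁.relIndex Q = q := by
      rw [hQ₁, Subgroup.inf_relIndex_right, ← Cfsg.Agent.H4.relIndex_sup_normal, hsup,
        Subgroup.relIndex_top_right, hidx]
    have hQ₁n : Q₁.Normal := by
      rw [← Subgroup.normalizer_eq_top_iff, eq_top_iff, ← hsup]
      apply sup_le
      · exact (le_inf Subgroup.le_normalizer
          (by rw [Subgroup.normalizer_eq_top]; exact le_top)).trans (normalizer_inf_le _ _)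
      · rw [← Subgroup.normal_subgroupOf_iff_le_normalizer inf_le_right]
        apply Subgroup.normal_of_index_eq_minFac_card
        obtain ⟨j, hj⟩ := IsPGroup.iff_card.1 hQ
        have hj0 : j ≠ 0 := by
          rintro rfl
          rw [pow_zero] at hj
          exact hQbot ((Subgroup.card_eq_one).1 hj)
        rw [hj, hq.pow_minFac hj0]
        exact hrel
    have hQ₁p : IsPGroup q Q₁ := hQ.to_le inf_le_right
    set C₁ : Subgroup G := centralizer (Q₁ : Set G) with hC₁
    have hC₁n : C₁.Normal := inferInstance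
    set T : Subgroup G := C₁ ⊔ Q with hT
    have hTn : T.Normal := inferInstance
    have hTidx : T.index.Coprime q :=
      Nat.Coprime.coprime_dvd_left (Subgroup.index_dvd_of_le le_sup_right) hQidx
    have hclaim : ∀ y : H, y ∈ LL q H → (y : G) ∈ T := by
      intro y hy
      obtain ⟨k, hk⟩ := exists_pow_coprime (p := q) y
      have hn1 : (Q₁.subgroupOf H).Normal := inferInstance
      have h1 := mem_centralizer_of_isSupersolvable hHss (Q := Q₁.subgroupOf H)
        (hQ₁p.comap_of_injective H.subtype H.subtype_injective) ((LL q H).pow_mem hy _) hk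
      have h2 : ((y : G) ^ q ^ k) ∈ C₁ := by
        rw [hC₁, mem_centralizer_iff]
        intro x hx
        have h3 := (mem_centralizer_iff.1 h1) ⟨x, hx.1⟩ hx
        exact congrArg Subtype.val h3
      rw [← QuotientGroup.eq_one_iff, ← orderOf_eq_one_iff]
      apply Nat.eq_one_of_dvd_coprimes (hTidx.pow_right k) (orderOf_dvd_natCard _)
      apply orderOf_dvd_of_pow_eq_one
      rw [← QuotientGroup.mk_pow, QuotientGroup.eq_one_iff]
      exact le_sup_left (a := C₁) h2
    have e : ∀ w ∈ Q, (QuotientGroup.mk' T) w = 1 := fun w hw =>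
      (QuotientGroup.eq_one_iff w).2 (le_sup_right (a := C₁) hw)
    have hLLT : LL q G ≤ T := by
      apply LL_le
      · intro a b
        obtain ⟨a', ha', u, hu, rfl⟩ := hdec a
        obtain ⟨b', hb', v, hv, rfl⟩ := hdec b
        have h1 := hclaim ⁅(⟨a', ha'⟩ : H), ⟨b', hb'⟩⁆ (commutator_mem_LL q _ _)
        rw [← QuotientGroup.eq_one_iff] at h1 ⊢
        show QuotientGroup.mk' T ⁅a' * u, b' * v⁆ = 1
        rw [map_commutatorElement, map_mul, map_mul, e u hu, e v hv, mul_one, mul_one,
          ← map_commutatorElement]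
        exact h1
      · intro g
        obtain ⟨a', ha', u, hu, rfl⟩ := hdec g
        have h1 := hclaim ((⟨a', ha'⟩ : H) ^ (q - 1)) (pow_mem_LL q _)
        rw [← QuotientGroup.eq_one_iff] at h1 ⊢
        show QuotientGroup.mk' T ((a' * u) ^ (q - 1)) = 1
        rw [map_pow, map_mul, e u hu, mul_one, ← map_pow]
        exact h1
    apply isSupersolvable_of_LL q Q (LL q G) hQ hssQ (commutator_mem_LL q) (pow_mem_LL q)
    intro l hl hlo
    have hlT := hLLT hl
    rw [hT, Subgroup.mem_sup_of_normal_right] at hlT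
    obtain ⟨c, hc, u, hu, hcu⟩ := hlT
    have hlC : l ∈ C₁ := by
      obtain ⟨j, hj⟩ := hQ ⟨u, hu⟩
      have hj' : u ^ q ^ j = 1 := congrArg Subtype.val hj
      rw [← QuotientGroup.eq_one_iff, ← orderOf_eq_one_iff]
      apply Nat.eq_one_of_dvd_coprimes (hlo.pow_right j) (orderOf_map_dvd (QuotientGroup.mk' C₁) l)
      apply orderOf_dvd_of_pow_eq_one
      show (QuotientGroup.mk' C₁ l) ^ q ^ j = 1
      have hc1 : QuotientGroup.mk' C₁ c = 1 := (QuotientGroup.eq_one_iff c).2 hc
      rw [← hcu, map_mul, hc1, one_mul, ← map_pow, hj', map_one]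
    exact mem_centralizer_of_stable hQ₁p hlo hlC (comm_mem_of_mem_LL hQ hrel hl hlo)

end Cfsg.Agent.Lib.Helper16
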